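import Mathlib
import Cfsg.Agent.Lib.Helper74.O720.Defs

set_option autoImplicit false

namespace Cfsg.Agent.Lib.Helper74.O720

variable {G : Type*} [Group G] [Finite G] [IsSimpleGroup G]

/-- [T0d] `Nz X = ⊤` means `X` normal (`Subgroup.normalizer_eq_top_iff`). -/
theorem Nz_ne_top (X : Subgroup G) (h1 : X ≠ ⊥) (h2 : X ≠ ⊤) : Nz X ≠ ⊤ := by
  intro h
  have hn : X.Normal := Subgroup.normalizer_eq_top_iff.1 h
  rcases hn.eq_bot_or_eq_top with h3 | h3
  · exact h1 h3
  · exact h2 h3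

end Cfsg.Agent.Lib.Helper74.O720
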