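import Mathlib
import Cfsg.Agent.Lib.Helper74.O720.Defs

set_option autoImplicit false

namespace Cfsg.Agent.Lib.Helper74.O720

variable {G : Type*} [Group G] [Finite G] [IsSimpleGroup G]

/-- [G0] `V ≤ M.normalCore` (`Subgroup.normalCore`, mem: all conjugates), which is normal, `≤ M ≠ ⊤`, so `⊥`. -/
theorem core_bot (M V : Subgroup G) (hM : M ≠ ⊤) (hV : ∀ g : G, V ≤ cj g M) : V = ⊥ := by
  have h1 : V ≤ M.normalCore := by
    intro v hv g
    have := mem_cj.1 (hV g⁻¹ hv)
    simpa using this
  rcases (Subgroup.normalCore_normal M).eq_bot_or_eq_top with h3 | h3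
  · rw [h3] at h1
    exact le_bot_iff.1 h1
  · exfalso
    apply hM
    rw [eq_top_iff, ← h3]
    exact Subgroup.normalCore_le M

end Cfsg.Agent.Lib.Helper74.O720
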