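import Mathlib
import Cfsg.Agent.Lib.Helper74.O720.Defs

set_option autoImplicit false

namespace Cfsg.Agent.Lib.Helper74.O720

variable {G : Type*} [Group G] [Finite G] [IsSimpleGroup G]

theorem S9_factorization : (720 : ℕ).factorization 3 = 2 := by
  have h1 : (720 : ℕ) = 3 ^ 2 * 80 := by norm_num
  rw [h1, Nat.factorization_mul (by norm_num) (by norm_num), Finsupp.add_apply,
    Nat.Prime.factorization_pow Nat.prime_three]
  have h2 : (80 : ℕ).factorization 3 = 0 := Nat.factorization_eq_zero_of_not_dvd (by norm_num)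
  rw [h2]
  simp

/-- [S9] `Sylow.ofCard`. -/
theorem sylow_of_card9 (h : Nat.card G = 720) (Q : Subgroup G) (hQ : Nat.card Q = 9) :
    ∃ P' : Sylow 3 G, (P' : Subgroup G) = Q := by
  have : Fact (Nat.Prime 3) := ⟨Nat.prime_three⟩
  refine ⟨Sylow.ofCard Q ?_, rfl⟩
  rw [hQ, h, S9_factorization]
  norm_num

end Cfsg.Agent.Lib.Helper74.O720
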