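import Mathlib
import Cfsg.Agent.Lib.Helper74.O720.Defs

set_option autoImplicit false

namespace Cfsg.Agent.Lib.Helper74.O720

variable {G : Type*} [Group G] [Finite G]

/-- [XN] -/
theorem XN (P : Subgroup G) (g : G) : Ig (Nz P) g ≤ Nz (P ⊓ cj g P) := by
  intro x hx
  apply mem_Nz_of_cj_eq
  have h1 : cj x P = P := cj_eq_self_of_mem_Nz hx.1
  have h2 : x ∈ Nz (cj g P) := by rw [Nz_cj]; exact hx.2
  have h3 : cj x (cj g P) = cj g P := cj_eq_self_of_mem_Nz h2
  rw [cj_inf, h1, h3]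

end Cfsg.Agent.Lib.Helper74.O720
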